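import Cfsg.Agent.NG.Str

/-! Components of `Y/O_2(Y)` on `V/⟨z⟩`, and the types of involutions with small commutator space. -/

set_option autoImplicit false
set_option linter.unusedSectionVars false
open Cfsg Subgroup Cfsg.Agent.H92 Cfsg.Agent.H70
open scoped commutatorElement

namespace Cfsg.Agent.NG

variable {G : Type*} [Group G] [Finite G]

variable {T X Y l P : Subgroup G} {z : G} {p : ℕ} {𝒦 : Finset (Subgroup G)}

namespace AM
variable (a : AM T X Y l z)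
include a

/-- subgroups of `V` over `z` are normalized by `V` -/
theorem V_norm_of {D : Subgroup G} (h1 : zpowers z ≤ D) (h2 : D ≤ ncl l Y) : ncl l Y ≤ Nm D :=
  a.pl.V_le_Q.trans (a.pl.Q_norm_of (h1 (mem_zpowers z)) h2)

theorem comm_z_le {K : Subgroup G} (hK : K ≤ Y) : ⁅zpowers z, K⁆ ≤ zpowers z :=
  commutator_le_left_of_norm (hK.trans a.pl.Y_norm_z)

theorem comm_sup_z {D E K : Subgroup G} (hD : D ≤ ncl l Y) (hE : E ≤ ncl l Y)
    (h1 : ⁅D, K⁆ ≤ zpowers z) (h2 : ⁅E, K⁆ ≤ zpowers z) : ⁅D ⊔ E, K⁆ ≤ zpowers z :=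
  comm_sup_le ((hD.trans a.pl.V_le_Y).trans a.pl.Y_norm_z) ((hE.trans a.pl.V_le_Y).trans a.pl.Y_norm_z)
    h1 h2

theorem comm_zpowers_le_z {D : Subgroup G} {u : G} (hu : u ∈ Y) (h : ∀ d ∈ D, ⁅d, u⁆ ∈ zpowers z) :
    ⁅D, zpowers u⁆ ≤ zpowers z := by
  rw [commutator_comm]
  exact (le_relCent.1 (zpowers_le.2 ⟨a.pl.Y_norm_z hu, fun d hd => by
    rw [← commutatorElement_inv d u]; exact inv_mem (h d hd)⟩)).2

/-- involutions of `Y/Q` act quadratically on `V/⟨z⟩` -/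
theorem quad_self {u : G} (hu : u ∈ Y) (h2 : u * u ∈ O2 Y) :
    ⁅Wc (ncl l Y) (zpowers u) z, zpowers u⁆ ≤ zpowers z := by
  have hW := a.Wc_le (zpowers_le.2 hu)
  refine a.comm_sup_z (le_sup_left.trans hW) a.pl.z_le_V ?_ (a.comm_z_le (zpowers_le.2 hu))
  refine (commutator_mono (comm_zpowers_le (D := ncl l Y ⊓ relCent {u} (zpowers z)) inf_le_left
    fun v hv => ?_) le_rfl).trans (a.comm_zpowers_le_z hu fun d hd => hd.2.2 u rfl)
  have h1 : ⁅u, v⁆ ∈ ncl l Y :=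
    (ncl l Y).mul_mem (conj_mem_of_le_norm a.pl.Y_norm_V hu hv) (inv_mem hv)
  refine ⟨h1, a.pl.Y_norm_z (a.pl.V_le_Y h1), fun c hc => ?_⟩
  rw [hc]
  have h3 : ⁅v, u * u⁆ ∈ zpowers z := a.pl.comm_V_Q (commutator_mem_commutator hv h2)
  have : ⁅⁅u, v⁆, u⁆ = ⁅u, v⁆ * ⁅u, v⁆ * ⁅v, u * u⁆ := by simp only [commutatorElement_def]; group
  rw [this]
  exact mul_mem (a.pl.sq_mem_z h1) h3

variable (y : YS T Y p P)
include y

/-- an involution of `Y/Q` is represented in `N(P)` -/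
theorem decomp {u : G} (hu : u ∈ Y) (h2 : u * u ∈ O2 Y) :
    ∃ q ∈ O2 Y, ∃ n ∈ Y ⊓ Nm P, q * n = u ∧ n * n ∈ O2 Y ∧ n * n ∈ Ct P := by
  obtain ⟨q, hq, n, hn, rfl⟩ := y.exists_Q_mul hu
  rw [show q * n * (q * n) = q * (n * q * n⁻¹) * (n * n) by group] at h2
  have h3 := ((O2 Y).mul_mem_cancel_left (mul_mem hq
    (conj_mem_of_le_norm (le_norm_pCoreOf Y) hn.1 hq))).1 h2
  exact ⟨q, hq, n, hn, rfl, h3, y.Q_norm_cent ⟨h3, mul_mem hn.2 hn.2⟩⟩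

theorem Y_norm_Cv : Y ≤ Nm (ncl l Y ⊓ Ct P) := by
  conv_lhs => rw [← y.frY]
  exact sup_le (a.pl.Q_norm_of ⟨a.pl.zV, a.z_le_Ct y le_rfl (mem_zpowers z)⟩ inf_le_left)
    (norm_inf (inf_le_left.trans a.pl.Y_norm_V) (norm_centralizer inf_le_right))

theorem card_Cv_le (hab : AB z l) : Nat.card ↥(ncl l Y ⊓ Ct P) ≤ 4 := by
  have hd := a.dpV y hab le_rfl
  have h1 := card_le_of_le (a.V_le_l_sup y hab)
  have h2 : Nat.card ↥(l ⊔ ⁅ncl l Y, P⁆) ≤ _ := card_sup_le (norm_of_cent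
    ((a.pl.l_le_V.trans (a.pl.V_abel hab)).trans (cent_anti hd.right_le)))
  rw [← hd.card] at h1
  rw [a.pl.card] at h2
  exact Nat.le_of_mul_le_mul_right (h1.trans h2) Nat.card_pos

/-- `Y` centralizes `C_V(P)/⟨z⟩` -/
theorem comm_Cv (hab : AB z l) : ⁅(ncl l Y ⊓ Ct P : Subgroup G), Y⁆ ≤ zpowers z := by
  have hz : zpowers z ≤ ncl l Y ⊓ Ct P := le_inf a.pl.z_le_V (a.z_le_Ct y le_rfl)
  have h1 := H49.card_mul_relIndex hz
  have h2 := a.card_Cv_le y hab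
  rw [a.pl.card_z] at h1
  rw [commutator_le]
  intro c hc g hg
  have hc' := conj_mem_of_le_norm (a.Y_norm_Cv y) hg (inv_mem hc)
  rw [commutatorElement_def, mul_assoc c, mul_assoc c]
  by_cases hcz : c ∈ zpowers z
  · exact mul_mem hcz (conj_mem_of_le_norm a.pl.Y_norm_z hg (inv_mem hcz))
  have h3 : (zpowers z).relIndex (ncl l Y ⊓ Ct P) ≠ 1 := fun e => hcz (relIndex_eq_one.1 e hc)
  have h4 := H49.relIndex_pos (zpowers z) (ncl l Y ⊓ Ct P)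
  refine mul_mem_of_relIndex_two (by omega) hc hc' hcz fun h => hcz ?_
  simpa [mul_assoc] using inv_mem (conj_mem_of_mem_norm' (a.pl.Y_norm_z hg) h)

end AM

namespace Str
variable (s : Str T Y l z p 𝒦) (a : AM T X Y l z) {K K' : Subgroup G}
include s

theorem prime : p.Prime := by rcases s.pp with rfl | rfl <;> decide
theorem le_FQ (hK : K ∈ 𝒦) : K ≤ R2 Y ⊔ O2 Y := s.gen ▸ le_iSup₂ (f := fun K (_ : K ∈ 𝒦) => K) K hK
theorem Q_le (hK : K ∈ 𝒦) : O2 Y ≤ K := (s.le K hK).1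
theorem leY (hK : K ∈ 𝒦) : K ≤ Y := (s.le K hK).2
theorem eq_or {H : Subgroup G} (hK : K ∈ 𝒦) (h1 : O2 Y ≤ H) (h2 : H ≤ K) : H = O2 Y ∨ H = K :=
  eq_or_eq_of_prime_relIndex s.prime (s.idx K hK) h1 h2
theorem not_le_Q (hK : K ∈ 𝒦) : ¬ K ≤ O2 Y := fun h =>
  s.prime.one_lt.ne' ((s.idx K hK).symm.trans (relIndex_eq_one.2 h))
theorem inf_eq_Q (hK : K ∈ 𝒦) (hK' : K' ∈ 𝒦) (h : K ≠ K') : K ⊓ K' = O2 Y := by
  refine (s.eq_or hK (le_inf (s.Q_le hK) (s.Q_le hK')) inf_le_left).resolve_right fun e => ?_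
  rcases s.eq_or hK' (s.Q_le hK) (inf_eq_left.1 e) with e' | e'
  · exact s.not_le_Q hK e'.le
  · exact h e'

include a

theorem ys_eq {q : ℕ} (y : YS T Y q P) : q = p := by
  have := Fact.mk y.prime
  have h1 := s.idxF
  rw [← y.sup, y.relIndex_Q le_rfl] at h1
  obtain ⟨k, hk⟩ := y.pgroup.exists_card_eq
  have h2 : q ∣ p ^ 𝒦.card := by
    rw [← h1, hk]
    refine dvd_pow_self q fun e => y.ne (card_eq_one.1 (by rw [hk, e, pow_zero]))
  exact (Nat.prime_dvd_prime_iff_eq y.prime s.prime).1 (y.prime.dvd_of_dvd_pow h2)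

theorem exists_ys : ∃ P, YS T Y p P := by
  obtain ⟨q, P, y⟩ := a.exists_ys
  exact ⟨P, s.ys_eq a y ▸ y⟩

theorem FQ_norm (hK : K ∈ 𝒦) : R2 Y ⊔ O2 Y ≤ Nm K := a.FQ_norm_of (s.Q_le hK) (s.le_FQ hK)

/-- `Y` permutes the components -/
theorem perm' {g : G} (hg : g ∈ Y) (hK : K ∈ 𝒦) : cj g K ∈ 𝒦 := by
  obtain ⟨f, hf, t, ht, rfl⟩ := (mem_sup_of_norm' (a.pl.TY.trans (le_norm_pRes Y))).1 (a.F_sup_T.ge hg)
  have h := s.perm t ht K hK
  rwa [cj_mul, cj_eq_self (s.FQ_norm a h (mem_sup_left hf))]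

theorem W_le (hK : K ∈ 𝒦) : Wc (ncl l Y) K z ≤ ncl l Y := a.Wc_le (s.leY hK)
theorem FQ_norm_W (hK : K ∈ 𝒦) : R2 Y ⊔ O2 Y ≤ Nm (Wc (ncl l Y) K z) :=
  a.norm_Wc a.FQ_le (s.FQ_norm a hK)
theorem W_not_le (hK : K ∈ 𝒦) : ¬ Wc (ncl l Y) K z ≤ zpowers z := fun h =>
  s.not_le_Q hK (a.le_Q_of_comm_V (s.leY hK) (le_sup_left.trans h))

section
variable (y : YS T Y p P)
include y

theorem eq_sup (hK : K ∈ 𝒦) : K = P ⊓ K ⊔ O2 Y := y.eq_inf_sup (s.Q_le hK) (y.sup ▸ s.le_FQ hK)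
theorem card_inf (hK : K ∈ 𝒦) : Nat.card ↥(P ⊓ K) = p := by
  rw [← y.relIndex_Q inf_le_left, ← s.eq_sup a y hK, s.idx K hK]
theorem W_eq (hK : K ∈ 𝒦) : Wc (ncl l Y) K z = Wc (ncl l Y) (P ⊓ K) z := by
  conv_lhs => rw [s.eq_sup a y hK]
  exact a.Wc_sup_Q (inf_le_left.trans y.leY)
theorem exists_gen (hK : K ∈ 𝒦) : ∃ x ∈ P, x ≠ 1 ∧ P ⊓ K = zpowers x ∧ K = zpowers x ⊔ O2 Y := by
  have h := s.card_inf a y hK
  obtain ⟨x, hx, hx1⟩ := H49.ne_bot_iff_exists.1 (H49.ne_bot_of_prime_card (h ▸ s.prime))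
  have e : P ⊓ K = zpowers x := (eq_of_le_of_card_ge (zpowers_le.2 hx)
    (by rw [h, y.card_zpowers hx.1 hx1])).symm
  exact ⟨x, hx.1, hx1, e, e ▸ s.eq_sup a y hK⟩
theorem iSup_W_eq : (⨆ K ∈ 𝒦, Wc (ncl l Y) K z) = Wc (ncl l Y) P z := by
  obtain ⟨K₀, hK₀⟩ := s.ne
  have hD : (⨆ K ∈ 𝒦, Wc (ncl l Y) K z) ≤ ncl l Y := iSup₂_le fun K hK => s.W_le a hK
  refine le_antisymm (iSup₂_le fun K hK => ?_) (sup_le ?_
    (le_sup_right.trans (le_iSup₂ (f := fun K (_ : K ∈ 𝒦) => Wc (ncl l Y) K z) _ hK₀)))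
  · rw [s.W_eq a y hK]; exact sup_le_sup_right (commutator_mono le_rfl inf_le_left) _
  · refine (commutator_mono le_rfl (le_sup_left.trans (y.sup.trans s.gen.symm).le)).trans ?_
    rw [commutator_comm]
    refine (le_relCent.1 (iSup₂_le fun K hK => ?_)).2
    have h1 : ⁅ncl l Y, K⁆ ≤ ⨆ K ∈ 𝒦, Wc (ncl l Y) K z :=
      le_sup_left.trans (le_iSup₂ (f := fun K (_ : K ∈ 𝒦) => Wc (ncl l Y) K z) _ hK)
    exact le_relCent.2 ⟨norm_of_between hD h1, by rwa [commutator_comm]⟩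
theorem V_eq_iSup_sup_Cv : ncl l Y = (⨆ K ∈ 𝒦, Wc (ncl l Y) K z) ⊔ ncl l Y ⊓ Ct P := by
  rw [s.iSup_W_eq a y]
  exact le_antisymm ((a.V_eq_cent_sup y le_rfl).ge.trans (sup_le_sup_right le_sup_left _))
    (sup_le (a.Wc_le y.leY) inf_le_left)
end

/-- `V = W_K · C_V(K mod z)` -/
theorem V_eq_W_sup (hK : K ∈ 𝒦) :
    ncl l Y = Wc (ncl l Y) K z ⊔ ncl l Y ⊓ relCent (K : Set G) (zpowers z) := by
  obtain ⟨P, y⟩ := s.exists_ys a
  refine le_antisymm ((a.V_eq_cent_sup y (inf_le_left : P ⊓ K ≤ P)).ge.trans (sup_le_sup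
    ((commutator_mono le_rfl inf_le_right).trans le_sup_left) (le_inf inf_le_left
      (a.le_relCent_of' inf_le_left ?_)))) (sup_le (s.W_le a hK) inf_le_left)
  conv_lhs => enter [2]; rw [s.eq_sup a y hK]
  exact comm_sup_le' ((inf_le_left.trans y.leY).trans a.pl.Y_norm_z)
    ((pCoreOf_le Y).trans a.pl.Y_norm_z) ((comm_le_bot_iff.2 inf_le_right).trans bot_le)
    ((commutator_mono inf_le_left le_rfl).trans a.pl.comm_V_Q)

variable (hab : AB z l)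
include hab

/-- `K` has no fixed points on `W_K/⟨z⟩` -/
theorem le_z_of (hK : K ∈ 𝒦) {D : Subgroup G} (hD : D ≤ Wc (ncl l Y) K z) (h : ⁅D, K⁆ ≤ zpowers z) :
    D ≤ zpowers z := by
  obtain ⟨P, y⟩ := s.exists_ys a
  rw [← a.Wc_inf_Ct y hab (inf_le_left : P ⊓ K ≤ P), ← s.W_eq a y hK]
  exact le_inf hD (a.cent_of_comm y inf_le_left (hD.trans (s.W_le a hK))
    ((commutator_mono le_rfl inf_le_right).trans h))

theorem W_inf_le (hK : K ∈ 𝒦) {D : Subgroup G} (h : ⁅D, K⁆ ≤ zpowers z) :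
    Wc (ncl l Y) K z ⊓ D ≤ zpowers z :=
  s.le_z_of a hab hK inf_le_left ((commutator_mono inf_le_right le_rfl).trans h)

theorem W_inf_W (hK : K ∈ 𝒦) (hK' : K' ∈ 𝒦) (h : K ≠ K') :
    Wc (ncl l Y) K z ⊓ Wc (ncl l Y) K' z = zpowers z :=
  le_antisymm (s.W_inf_le a hab hK (s.indep K' hK' K hK h.symm)) (le_inf le_sup_right le_sup_right)

theorem eq_of_W_le (hK : K ∈ 𝒦) (hK' : K' ∈ 𝒦) (h : Wc (ncl l Y) K z ≤ Wc (ncl l Y) K' z) :
    K = K' := by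
  by_contra hn
  exact s.W_not_le a hK ((le_inf le_rfl h).trans (s.W_inf_W a hab hK hK' hn).le)

theorem le_z_of_two (hK : K ∈ 𝒦) (hK' : K' ∈ 𝒦) {D : Subgroup G}
    (hD : D ≤ Wc (ncl l Y) K z ⊔ Wc (ncl l Y) K' z) (h : ⁅D, K⁆ ≤ zpowers z)
    (h' : ⁅D, K'⁆ ≤ zpowers z) : D ≤ zpowers z := by
  by_cases e : K = K'
  · subst e; exact s.le_z_of a hab hK (by simpa using hD) h
  refine s.le_z_of a hab hK' ?_ h'
  have hDV := hD.trans (sup_le (s.W_le a hK) (s.W_le a hK'))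
  have h1 := sup_inf_of_norm (A := Wc (ncl l Y) K' z) (B := Wc (ncl l Y) K z)
    (C := relCent (K : Set G) (zpowers z))
    ((s.W_le a hK').trans (a.V_norm_of le_sup_right (s.W_le a hK)))
    (a.le_relCent_of' (s.W_le a hK') (s.indep K' hK' K hK (Ne.symm e)))
  refine ((le_inf (hD.trans (sup_comm _ _).le) (a.le_relCent_of' hDV h)).trans h1.le).trans
    (sup_le le_rfl ((s.W_inf_le a hab hK (le_relCent.1 le_rfl).2).trans le_sup_right))

/-- `K` is irreducible on `W_K/⟨z⟩` -/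
theorem W_min (hK : K ∈ 𝒦) {D : Subgroup G} (h1 : zpowers z ≤ D) (h2 : D ≤ Wc (ncl l Y) K z)
    (hn : K ≤ Nm D) : D = zpowers z ∨ D = Wc (ncl l Y) K z := by
  obtain ⟨P, y⟩ := s.exists_ys a
  have := Fact.mk y.prime
  have h3 : _ ≡ Nat.card ↥(D ⊓ Ct (P ⊓ K)) [MOD p] := H3.card_modEq_card_inf_centralizer
    (y.pgroup.to_le (inf_le_left : P ⊓ K ≤ P)) (inf_le_right.trans hn)
  have h4 : D ⊓ Ct (P ⊓ K) = zpowers z := by
    refine le_antisymm ?_ (le_inf h1 (a.z_le_Ct y inf_le_left))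
    rw [← a.Wc_inf_Ct y hab (inf_le_left : P ⊓ K ≤ P), ← s.W_eq a y hK]
    exact inf_le_inf_right _ h2
  rw [h4, a.pl.card_z, Nat.ModEq] at h3
  obtain ⟨k, hk⟩ := (a.pl.V_pgroup.to_le (h2.trans (s.W_le a hK))).exists_card_eq
  have h5 := card_le_of_le h2
  rw [s.cardW K hK, hk] at h5
  have h6 := (Nat.pow_le_pow_iff_right one_lt_two).1 h5
  rw [hk] at h3
  by_cases h7 : k = 1
  · exact Or.inl (eq_of_le_of_card_ge h1 (by rw [hk, h7, a.pl.card_z]; rfl)).symm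
  refine Or.inr (eq_of_le_of_card_ge h2 ?_)
  rw [s.cardW K hK, hk]
  rcases s.pp with rfl | rfl <;> interval_cases k <;> omega

theorem comm_eq_W (hK : K ∈ 𝒦) {D : Subgroup G} (hD : D ≤ ncl l Y) (h : ¬ ⁅D, K⁆ ≤ zpowers z) :
    ⁅D, K⁆ ⊔ zpowers z = Wc (ncl l Y) K z :=
  (s.W_min a hab hK le_sup_right (sup_le_sup_right (commutator_mono hD le_rfl) _)
    (norm_sup (H49.le_norm_commutator_right _ _) ((s.leY hK).trans a.pl.Y_norm_z))).resolve_left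
    fun e => h (le_sup_left.trans e.le)

theorem comm_W (hK : K ∈ 𝒦) : ⁅Wc (ncl l Y) K z, K⁆ ⊔ zpowers z = Wc (ncl l Y) K z :=
  s.comm_eq_W a hab hK (s.W_le a hK) fun h => s.W_not_le a hK (s.le_z_of a hab hK le_rfl h)

omit hab in
/-- every component moves `l/⟨z⟩` -/
theorem not_comm_l (hK : K ∈ 𝒦) : ¬ ⁅l, K⁆ ≤ zpowers z := fun h =>
  s.not_le_Q hK ((le_inf (s.le_FQ hK) (a.pl.norm_l_of_comm h)).trans a.FQ_inf_Nm.le)

theorem comm_l (hK : K ∈ 𝒦) : ⁅l, K⁆ ⊔ zpowers z = Wc (ncl l Y) K z :=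
  s.comm_eq_W a hab hK a.pl.l_le_V (s.not_comm_l a hK)

/-- `K/Q` is faithful on `W_K/⟨z⟩` -/
theorem le_Q_of (hK : K ∈ 𝒦) {D : Subgroup G} (hD : D ≤ K)
    (h : ⁅Wc (ncl l Y) K z, D⁆ ≤ zpowers z) : D ≤ O2 Y := by
  rcases s.eq_or hK (le_inf (s.Q_le hK) (a.Q_le_relCent (s.W_le a hK))) inf_le_left with e | e
  · exact (le_inf hD (a.le_relCent_of (hD.trans (s.leY hK)) h)).trans e.le
  · have h1 := (le_relCent.1 (e.ge.trans inf_le_right)).2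
    rw [commutator_comm] at h1
    exact absurd (s.le_z_of a hab hK le_rfl h1) (s.W_not_le a hK)

/-- a `2`-group that centralizes `K/Q` centralizes `W_K/⟨z⟩` -/
theorem cent_W (hK : K ∈ 𝒦) {D : Subgroup G} (hD : D ≤ Y) (h2 : IsPGroup 2 D) (h : ⁅K, D⁆ ≤ O2 Y) :
    ⁅Wc (ncl l Y) K z, D⁆ ≤ zpowers z := by
  have hDQ : D ⊔ O2 Y ≤ Y := sup_le hD (pCoreOf_le Y)
  have hn : D ⊔ O2 Y ≤ Nm K := sup_le (norm_of_commutator_le (h.trans (s.Q_le hK)))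
    (norm_of_le (s.Q_le hK))
  have hW := a.norm_Wc hDQ hn
  have hKn : K ≤ Nm (D ⊔ O2 Y) := norm_of_commutator_le (comm_sup_le (norm_of_le le_sup_left)
    (norm_of_le le_sup_right) (by rw [commutator_comm]; exact h.trans le_sup_right)
    ((commutator_le_left_of_norm ((s.leY hK).trans (le_norm_pCoreOf Y))).trans le_sup_right))
  rcases s.W_min a hab hK le_sup_right (sup_le (commutator_le_left_of_norm hW) le_sup_right)
    (norm_sup (norm_commutator (a.norm_Wc (s.leY hK) le_normalizer) hKn)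
      ((s.leY hK).trans a.pl.Y_norm_z)) with e | e
  · exact (commutator_mono le_rfl le_sup_left).trans (le_sup_left.trans e.le)
  · exact absurd (le_of_le_comm_sup (a.pl.V_pgroup.to_le (s.W_le a hK))
      (isPGroup_sup_of_norm h2 a.Qp (hD.trans (le_norm_pCoreOf Y))) hW
      (((s.W_le a hK).trans a.pl.V_le_Y).trans a.pl.Y_norm_z) (hDQ.trans a.pl.Y_norm_z) e.ge)
      (s.W_not_le a hK)

/-- a group that centralizes `W_K/⟨z⟩` centralizes `K/Q` -/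
theorem cent_K (hK : K ∈ 𝒦) {D : Subgroup G} (hD : D ≤ Y)
    (h : ⁅Wc (ncl l Y) K z, D⁆ ≤ zpowers z) : ⁅K, D⁆ ≤ O2 Y := by
  have hn : D ≤ Nm K := fun g hg => cj_eq_self_iff.1 (s.eq_of_W_le a hab (s.perm' a (hD hg) hK) hK (by
    rw [← a.cj_Wc (hD hg)]
    exact cj_le_of_mem_norm (norm_of_commutator_le (h.trans le_sup_right) hg) le_rfl))
  refine s.le_Q_of a hab hK (commutator_le_left_of_norm hn) ?_
  rw [commutator_comm]
  refine three_subgroups ((s.leY hK).trans a.pl.Y_norm_z) (hD.trans a.pl.Y_norm_z)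
    (((s.W_le a hK).trans a.pl.V_le_Y).trans a.pl.Y_norm_z) ?_ ?_
  · rw [commutator_comm D]; exact (commutator_mono h le_rfl).trans (a.comm_z_le (s.leY hK))
  · exact (commutator_mono (commutator_le_left_of_norm (a.norm_Wc (s.leY hK) le_normalizer))
      le_rfl).trans h

/-- `[V, D] ⟨z⟩` is generated by the `[W_K, D]` -/
theorem Wc_le_of {D E : Subgroup G} (hD : D ≤ Y) (h1 : zpowers z ≤ E) (h2 : E ≤ ncl l Y)
    (h : ∀ K ∈ 𝒦, ⁅Wc (ncl l Y) K z, D⁆ ≤ E) : Wc (ncl l Y) D z ≤ E := by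
  obtain ⟨P, y⟩ := s.exists_ys a
  have hn := a.V_norm_of h1 h2
  have h3 : ncl l Y ≤ relCent (D : Set G) E := (s.V_eq_iSup_sup_Cv a y).le.trans (sup_le
    (iSup₂_le fun K hK => le_relCent.2 ⟨(s.W_le a hK).trans hn, h K hK⟩)
    (le_relCent.2 ⟨inf_le_left.trans hn,
      ((commutator_mono le_rfl hD).trans (a.comm_Cv y hab)).trans h1⟩))
  exact sup_le (le_relCent.1 h3).2 h1

variable {u : G}

omit hab in
/-- an involution of `Y/Q` that normalizes `K` and does not centralize `K/Q` inverts it -/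
theorem inverts (y : YS T Y p P) (hK : K ∈ 𝒦) (hu : u ∈ Y) (h2 : u * u ∈ O2 Y) (hn : cj u K = K)
    (h : ¬ ⁅K, zpowers u⁆ ≤ O2 Y) {x : G} (hx : x ∈ P ⊓ K) : u * x * u⁻¹ * x ∈ O2 Y := by
  obtain ⟨q, hq, n, hnY, rfl, hn2, hnP⟩ := a.decomp y hu h2
  have hnK : n ∈ Nm K := ((Nm K).mul_mem_cancel_left (norm_of_le (s.Q_le hK) hq)).1
    (cj_eq_self_iff.1 hn)
  have hA : zpowers n ≤ Nm (P ⊓ K) := norm_inf (zpowers_le.2 hnY.2) (zpowers_le.2 hnK)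
  have h1 := conj_mem_of_le_norm hA (mem_zpowers n) hx
  have h3 : n * x * n⁻¹ * x = 1 := by
    rcases H49.inf_eq_bot_or_le_of_prime_card (s.card_inf a y hK ▸ s.prime) (Cz n) with e | e
    · rw [← mem_bot, ← e]
      refine mem_inf.2 ⟨mul_mem h1 hx, ?_⟩
      rw [mem_centralizer_singleton_iff, eq_comm, ← mul_inv_eq_iff_eq_mul]
      calc _ = (n * n * x * (n * n)⁻¹) * (n * x * n⁻¹) := by group
        _ = x * (n * x * n⁻¹) := by rw [← hnP x hx.1]; group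
        _ = _ := y.abel h1.1 x hx.1
    · refine absurd ?_ h
      have hQn := (pCoreOf_le (p := 2) Y).trans (le_norm_pCoreOf (p := 2) Y)
      refine (commutator_mono le_rfl (zpowers_le.2 (mul_mem (mem_sup_left hq)
        (mem_sup_right (mem_zpowers n))))).trans (comm_sup_le' hQn
        ((zpowers_le.2 hnY.1).trans (le_norm_pCoreOf Y))
        (commutator_le_right_of_norm ((s.leY hK).trans (le_norm_pCoreOf Y))) ?_)
      conv_lhs => rw [s.eq_sup a y hK]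
      exact comm_sup_le (inf_le_left.trans y.P_norm_Q) hQn
        ((comm_le_bot_iff.2 (e.trans (Ct_zpowers n).ge)).trans bot_le)
        (commutator_le_left_of_norm ((zpowers_le.2 hnY.1).trans (le_norm_pCoreOf Y)))
  have : q * n * x * (q * n)⁻¹ * x = q * ((n * x * n⁻¹) * q⁻¹ * (n * x * n⁻¹)⁻¹) *
      (n * x * n⁻¹ * x) := by group
  rw [this, h3, mul_one]
  exact mul_mem hq (conj_mem_of_le_norm y.P_norm_Q h1.1 (inv_mem hq))

/-- such an involution is free on `W_K/⟨z⟩` -/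
theorem card_inv (hK : K ∈ 𝒦) (hu : u ∈ Y) (h2 : u * u ∈ O2 Y) (hn : cj u K = K)
    (h : ¬ ⁅K, zpowers u⁆ ≤ O2 Y) :
    Nat.card ↥(⁅Wc (ncl l Y) K z, zpowers u⁆ ⊔ zpowers z) = 2 ^ ((p + 1) / 2) := by
  obtain ⟨P, y⟩ := s.exists_ys a
  obtain ⟨x, hx, hx1, e1, e2⟩ := s.exists_gen a y hK
  have hxK : x ∈ P ⊓ K := e1 ▸ mem_zpowers x
  have hi := s.inverts a y hK hu h2 hn h hxK
  have hxY := y.leY hx
  have hWV := s.W_le a hK
  set W := Wc (ncl l Y) K z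
  set D := ⁅W, zpowers u⁆ ⊔ zpowers z with hDdef
  have huW : zpowers u ≤ Nm W := a.norm_Wc (zpowers_le.2 hu) (zpowers_le.2 (cj_eq_self_iff.1 hn))
  have hxW : x ∈ Nm W := a.norm_Wc (s.leY hK) le_normalizer hxK.2
  have hD : D ≤ W := sup_le (commutator_le_left_of_norm huW) le_sup_right
  have hD' : cj x D ≤ W := cj_le_of_mem_norm hxW hD
  have hzD' : zpowers z ≤ cj x D := by
    rw [← cj_eq_self (a.pl.Y_norm_z hxY)]; exact cj_mono x le_sup_right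
  have h3 : ⁅D, zpowers u⁆ ≤ zpowers z := (commutator_mono (sup_le_sup_right
    (commutator_mono hWV le_rfl) _) le_rfl).trans (a.quad_self hu h2)
  have h4 : D ⊓ cj x D = zpowers z := by
    refine le_antisymm (s.le_z_of a hab hK (inf_le_left.trans hD) ?_) (le_inf le_sup_right hzD')
    have hV : D ⊓ cj x D ≤ ncl l Y := (inf_le_left.trans hD).trans hWV
    have h5 := cj_le_of_mem_norm (a.pl.Y_norm_z hxY) h3
    rw [cj_commutator, cj_zpowers] at h5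
    have h6 := a.mem_of_inverted y hx hi (a.Q_le_relCent hV)
      (a.le_relCent_of (zpowers_le.2 hu) ((commutator_mono inf_le_left le_rfl).trans h3)
        (mem_zpowers u))
      (a.le_relCent_of (zpowers_le.2 (mul_mem (mul_mem hxY hu) (inv_mem hxY)))
        ((commutator_mono inf_le_right le_rfl).trans h5) (mem_zpowers _))
    rw [e2, commutator_comm]
    exact (le_relCent.1 (sup_le (zpowers_le.2 h6) (a.Q_le_relCent hV))).2
  have h7 : D ⊔ cj x D = W := by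
    refine le_antisymm (sup_le hD hD') ?_
    have key : ∀ L, ⁅W, L⁆ ≤ D ⊔ cj x D → L ≤ relCent W (D ⊔ cj x D) := fun L hL =>
      le_relCent.2 ⟨norm_of_between (sup_le hD hD') hL, by rwa [commutator_comm]⟩
    have hQ := key _ (((commutator_mono hWV le_rfl).trans a.pl.comm_V_Q).trans
      (le_sup_right.trans le_sup_left))
    have h8 := a.mem_of_inverted y hx hi hQ (key _ (le_sup_left.trans le_sup_left) (mem_zpowers u))
      (key (zpowers (x * u * x⁻¹)) (by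
        rw [← cj_zpowers, ← cj_eq_self hxW, ← cj_commutator]
        exact (cj_mono x le_sup_left).trans le_sup_right) (mem_zpowers _))
    have h9 := (le_relCent.1 (e2.le.trans (sup_le (zpowers_le.2 h8) hQ))).2
    rw [commutator_comm] at h9
    exact (s.comm_W a hab hK).ge.trans (sup_le h9 (le_sup_right.trans le_sup_left))
  have h10 := H49.card_sup_mul_card_inf (Or.inl ((hD.trans hWV).trans
    (a.V_norm_of hzD' (hD'.trans hWV))))
  rw [h7, h4, card_cj, s.cardW K hK, a.pl.card_z] at h10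
  rcases s.pp with rfl | rfl <;> exact Nat.mul_self_inj.1 (h10.symm.trans (by norm_num))

/-- an involution that moves `K` -/
theorem card_swap (hK : K ∈ 𝒦) (hu : u ∈ Y) (hn : cj u K ≠ K) :
    2 ^ p ≤ Nat.card ↥(⁅Wc (ncl l Y) K z, zpowers u⁆ ⊔ zpowers z) := by
  have hK' := s.perm' a hu hK
  have hWV := s.W_le a hK
  set W := Wc (ncl l Y) K z
  set D := ⁅W, zpowers u⁆ ⊔ zpowers z
  have hD : D ≤ ncl l Y := (sup_le_sup_right (commutator_mono hWV le_rfl) _).trans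
    (a.Wc_le (zpowers_le.2 hu))
  have h1 : W ⊔ Wc (ncl l Y) (cj u K) z ≤ W ⊔ D := by
    refine sup_le le_sup_left ?_
    rw [← a.cj_Wc hu]
    refine (cj_le_ncl W (mem_zpowers u)).trans ?_
    rw [ncl_eq_sup_comm]
    exact sup_le_sup_left le_sup_left _
  have h2 := H49.card_sup_mul_card_inf (Or.inl (hWV.trans (a.V_norm_of le_sup_right (s.W_le a hK'))))
  have h3 := H49.card_sup_mul_card_inf (Or.inl (hWV.trans (a.V_norm_of le_sup_right hD)))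
  rw [s.W_inf_W a hab hK hK' hn.symm, s.cardW _ hK', a.pl.card_z] at h2
  have h4 := card_le_of_le h1
  have h5 := card_le_of_le (le_inf le_sup_right le_sup_right : zpowers z ≤ W ⊓ D)
  rw [a.pl.card_z] at h5
  refine Nat.le_of_mul_le_mul_left ?_ (Nat.card_pos (α := W))
  rw [← h2, ← h3]
  exact Nat.mul_le_mul h4 h5

omit hab in
theorem comm_W_le (hK : K ∈ 𝒦) (hu : u ∈ Y) (h2 : u * u ∈ O2 Y) :
    ⁅Wc (ncl l Y) K z, zpowers u⁆ ≤ Wc (ncl l Y) K z ⊔ Wc (ncl l Y) (cj u K) z := by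
  refine (commutator_mono le_sup_left le_rfl).trans (commutator_le_left_of_norm (zpowers_le.2
    (mem_normalizer_of_cj_le ?_)))
  rw [cj_sup, a.cj_Wc hu, a.cj_Wc hu, ← cj_mul, cj_eq_self_of_mem (s.Q_le hK h2), sup_comm]

omit hab in
theorem cj_cj (hK : K ∈ 𝒦) (h2 : u * u ∈ O2 Y) : cj u (cj u K) = K := by
  rw [← cj_mul, cj_eq_self_of_mem (s.Q_le hK h2)]

omit hab in
theorem cj_eq_of_comm (hK : K ∈ 𝒦) (h : ⁅K, zpowers u⁆ ≤ O2 Y) : cj u K = K :=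
  cj_eq_self (norm_of_commutator_le (h.trans (s.Q_le hK)) (mem_zpowers u))

omit hab in
theorem exists_moved {D : Subgroup G} (hD : D ≤ Y) (h2 : IsPGroup 2 D) (h1 : ¬ D ≤ O2 Y) :
    ∃ K ∈ 𝒦, ¬ ⁅K, D⁆ ≤ O2 Y := by
  by_contra hc
  push Not at hc
  refine h1 (a.le_Q_of_comm' hD h2 ?_)
  rw [commutator_comm]
  exact (commutator_mono (le_sup_left.trans s.gen.ge) le_rfl).trans (le_relCent.1 (iSup₂_le
    fun K hK => le_relCent.2 ⟨(s.leY hK).trans (le_norm_pCoreOf Y), hc K hK⟩)).2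

/-- The types of involutions `u` of `Y/Q` with `|[V/⟨z⟩, u]| ≤ 4`. -/
theorem types (hu : u ∈ Y) (h1 : u ∉ O2 Y) (h2 : u * u ∈ O2 Y)
    (hc : Nat.card (Wc (ncl l Y) (zpowers u) z) ≤ 8) :
    (∃ K ∈ 𝒦, cj u K = K ∧ ¬ ⁅K, zpowers u⁆ ≤ O2 Y ∧
      (∀ K' ∈ 𝒦, K' ≠ K → ⁅K', zpowers u⁆ ≤ O2 Y) ∧
      Wc (ncl l Y) (zpowers u) z = ⁅Wc (ncl l Y) K z, zpowers u⁆ ⊔ zpowers z ∧
      Wc (ncl l Y) (zpowers u) z ≤ Wc (ncl l Y) K z ∧
      Nat.card (Wc (ncl l Y) (zpowers u) z) = 2 ^ ((p + 1) / 2)) ∨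
    (p = 3 ∧ Nat.card (Wc (ncl l Y) (zpowers u) z) = 8 ∧ ∃ K₁ ∈ 𝒦, ∃ K₂ ∈ 𝒦, K₁ ≠ K₂ ∧
      ¬ ⁅K₁, zpowers u⁆ ≤ O2 Y ∧ ¬ ⁅K₂, zpowers u⁆ ≤ O2 Y ∧
      (∀ K' ∈ 𝒦, K' ≠ K₁ → K' ≠ K₂ → ⁅K', zpowers u⁆ ≤ O2 Y) ∧
      Wc (ncl l Y) (zpowers u) z ≤ Wc (ncl l Y) K₁ z ⊔ Wc (ncl l Y) K₂ z ∧
      ((cj u K₁ = K₁ ∧ cj u K₂ = K₂) ∨ (cj u K₁ = K₂ ∧ cj u K₂ = K₁ ∧
        Wc (ncl l Y) (zpowers u) z = ⁅Wc (ncl l Y) K₁ z, zpowers u⁆ ⊔ zpowers z))) := by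
  have huY := zpowers_le.2 hu
  have hu2 := isPGroup_zpowers_of_sq a.Qp h2
  have hle : ∀ K ∈ 𝒦, ⁅Wc (ncl l Y) K z, zpowers u⁆ ⊔ zpowers z ≤ Wc (ncl l Y) (zpowers u) z :=
    fun K hK => sup_le_sup_right (commutator_mono (s.W_le a hK) le_rfl) _
  have hoth : ∀ K₁ ∈ 𝒦, ∀ K₂ ∈ 𝒦, Wc (ncl l Y) (zpowers u) z ≤
      Wc (ncl l Y) K₁ z ⊔ Wc (ncl l Y) K₂ z → ∀ K' ∈ 𝒦, K' ≠ K₁ → K' ≠ K₂ → cj u K' ≠ K₁ →
      cj u K' ≠ K₂ → ⁅K', zpowers u⁆ ≤ O2 Y := fun K₁ hK₁ K₂ hK₂ h K' hK' n1 n2 n3 n4 => by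
    have hK'' := s.perm' a hu hK'
    have := s.comm_W_le a hK' hu h2
    exact s.cent_K a hab hK' huY (s.le_z_of_two a hab hK₁ hK₂
      ((le_sup_left.trans (hle K' hK')).trans h)
      ((commutator_mono this le_rfl).trans (a.comm_sup_z (s.W_le a hK') (s.W_le a hK'')
        (s.indep _ hK' _ hK₁ n1) (s.indep _ hK'' _ hK₁ n3)))
      ((commutator_mono this le_rfl).trans (a.comm_sup_z (s.W_le a hK') (s.W_le a hK'')
        (s.indep _ hK' _ hK₂ n2) (s.indep _ hK'' _ hK₂ n4))))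
  by_cases hs : ∃ K ∈ 𝒦, cj u K ≠ K
  · obtain ⟨K, hK, hn⟩ := hs
    have hK' := s.perm' a hu hK
    have h3 := s.card_swap a hab hK hu hn
    have h4 := card_le_of_le (hle K hK)
    have hp : p = 3 := s.pp.resolve_right (by rintro rfl; omega)
    subst hp
    have e := (eq_of_le_of_card_ge (hle K hK) (by omega)).symm
    have h5 : Wc (ncl l Y) (zpowers u) z ≤ Wc (ncl l Y) K z ⊔ Wc (ncl l Y) (cj u K) z :=
      e.le.trans (sup_le (s.comm_W_le a hK hu h2) (le_sup_right.trans le_sup_left))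
    refine Or.inr ⟨rfl, by omega, K, hK, _, hK', hn.symm, fun h => hn (s.cj_eq_of_comm a hK h),
      fun h => hn ?_, fun K' hK'' n1 n2 => hoth K hK _ hK' h5 K' hK'' n1 n2 (fun h => n2 ?_)
        fun h => n1 ((cj_inj u).1 h), h5, Or.inr ⟨rfl, s.cj_cj a hK h2, e⟩⟩
    · rw [← s.cj_eq_of_comm a hK' h, s.cj_cj a hK h2]
    · rw [← h, s.cj_cj a hK'' h2]
  push Not at hs
  have hW : ∀ K ∈ 𝒦, ⁅Wc (ncl l Y) K z, zpowers u⁆ ⊔ zpowers z ≤ Wc (ncl l Y) K z := fun K hK =>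
    sup_le ((s.comm_W_le a hK hu h2).trans (by rw [hs K hK, sup_idem])) le_sup_right
  obtain ⟨K, hK, hm⟩ := s.exists_moved a huY hu2 fun h => h1 (h (mem_zpowers u))
  have c1 := s.card_inv a hab hK hu h2 (hs K hK) hm
  by_cases h3 : ∀ K' ∈ 𝒦, K' ≠ K → ⁅K', zpowers u⁆ ≤ O2 Y
  · have e := le_antisymm (s.Wc_le_of a hab huY le_sup_right ((hW K hK).trans (s.W_le a hK))
      fun K' hK' => by
        by_cases e : K' = K
        · rw [e]; exact le_sup_left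
        · exact (s.cent_W a hab hK' huY hu2 (h3 K' hK' e)).trans le_sup_right) (hle K hK)
    exact Or.inl ⟨K, hK, hs K hK, hm, h3, e, e.le.trans (hW K hK), e ▸ c1⟩
  push Not at h3
  obtain ⟨K', hK', hne, hm'⟩ := h3
  have c2 := s.card_inv a hab hK' hu h2 (hs K' hK') hm'
  have h4 := H49.card_sup_mul_card_inf (Or.inl (((hW K hK).trans (s.W_le a hK)).trans
    (a.V_norm_of le_sup_right ((hW K' hK').trans (s.W_le a hK')))))
  rw [le_antisymm ((inf_le_inf (hW K hK) (hW K' hK')).trans (s.W_inf_W a hab hK hK' hne.symm).le)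
    (le_inf le_sup_right le_sup_right), c1, c2, a.pl.card_z] at h4
  have h5 := sup_le (hle K hK) (hle K' hK')
  have h6 := card_le_of_le h5
  have hp : p = 3 := s.pp.resolve_right (by rintro rfl; omega)
  subst hp
  have h7 := (eq_of_le_of_card_ge h5 (by omega)).ge.trans (sup_le_sup (hW K hK) (hW K' hK'))
  exact Or.inr ⟨rfl, by omega, K, hK, K', hK', hne.symm, hm, hm', fun L hL n1 n2 =>
    hoth K hK K' hK' h7 L hL n1 n2 (by rwa [hs L hL]) (by rwa [hs L hL]), h7,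
    Or.inl ⟨hs K hK, hs K' hK'⟩⟩

end Str

end Cfsg.Agent.NG
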